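import Cfsg.Agent.LyIndex33.Glue
import Cfsg.Agent.Ly95.Glue
import Cfsg.Agent.Ly95.Normalizer

/-!
With exact index the subgroup generated by a, b, c, d is its own normalizer.
-/

set_option autoImplicit false
set_option linter.style.haveILetI false

namespace CfsgLib.LyExist36

open CfsgLib.DCert22 CfsgLib.Ly33 Cfsg.Spor

theorem normalizer_abcd (hex : CfsgLib.Ly95.abcd.index = 8835156) :
    Subgroup.normalizer (CfsgLib.Ly95.abcd : Set Ly) ≤ CfsgLib.Ly95.abcd := by
  haveI : Finite Hg := Nat.finite_of_card_ne_zero (by rw [card_Hg]; norm_num)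
  refine CfsgLib.Ly95.normalizer_le lySetup.model _ cert lySetup.range_le live Setup.kLow
    (lySetup.covered lySetup_gen) lySetup.hlow ?_ ?_
  · rw [hex]
    simp only [live, List.map_cons, List.map_nil, List.sum_cons, List.sum_nil, Setup.kLow, card_Hg]
    norm_num
  · intro a ha h0
    simp only [live, List.mem_cons, List.not_mem_nil, or_false] at ha
    rcases ha with rfl | rfl | rfl | rfl | rfl
    · exact absurd rfl h0
    all_goals simp only [Setup.kLow, card_Hg]; norm_num

end CfsgLib.LyExist36
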